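import Cfsg.Agent.H14.EPX.FiRep
import Cfsg.Agent.H553.KKL.E7One
import Cfsg.Agent.H805.EPX.Rows

/-!
# `Fi₂₂` is not a subgroup of `E₇(q)`, `q` odd (helper14)

* `dim_classical` : the `(-1)`-eigenspace of a classical involution of `E₇(q)` has dimension `64`;
* `no_fi22_E7` : `Fi₂₂` does not embed into `E₇(q)`, `q` odd;
* `e7_3_Fi22` : the field of `H805.EPX.Rows`.
-/

set_option autoImplicit false
set_option linter.unusedSectionVars false

namespace Cfsg.Agent.H14.EPX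

open CoxeterSystem Cfsg Cfsg.Lie Cfsg.Lie.ChevalleyDatum
open Cfsg.Agent.ChevalleyStructure Cfsg.Agent.ChevalleyStructure.Elts Cfsg.Agent.ChevalleyStructure.CoxeterGeom
  Cfsg.Agent.ChevalleyStructure.CoxeterGeomTypes Cfsg.Agent.ChevalleyStructure.NPerm
open Cfsg.Agent.Tits.Roots Cfsg.Agent.Nodes.BNOf Cfsg.Agent.Nodes.RGDChev Cfsg.Agent.Nodes.Reps
open Cfsg.Agent.KFacts.RgdChevCoord (TT XX)
open Cfsg.Agent.H167.EX Cfsg.Agent.H512.LinFour.IdealF Cfsg.Agent.H971.RV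
open Cfsg.Agent.H557.LrSgn Cfsg.Agent.H557.LrOrb Cfsg.Agent.H557.LrNF Cfsg.Agent.H557.LrFam Cfsg.Agent.H557.LrData
  Cfsg.Agent.H557.LrChev Cfsg.Agent.H557.LrRho
open Cfsg.Agent.UGT.U2.FOne
open Cfsg.Agent.GenExc.Chev (zS)
open Cfsg.Agent.H553.KKL
open Module

theorem card_E7_0 : ((Finset.range chevE7.nroots).filter fun r => ¬ evk chevE7 (l := 7) 0 r = true).card = 64 := by
  decide +kernel

variable {K : Type} [Field K] [Fintype K]

/-- **the `(-1)`-eigenspace of a classical involution** -/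
theorem dim_classical (ho : Odd (Fintype.card K)) {t : ↥(chevE7.group K)} (h : IsConj (zS isType_E7 K [0]) t) :
    finrank K ↥(LinearMap.ker (rho chevE7 K t + 1)) = 64 := by
  obtain ⟨p, hpp, hpc, hp2⟩ := exists_char K ho
  have : Fact p.Prime := ⟨hpp⟩
  have h2 := (Cfsg.Agent.H557.LrIso.odd_card (F := K) hp2).2
  have hS : IsSimpleGroup ↥(Lie.chevE7.group K) ∧ ¬ IsMulCommutative ↥(Lie.chevE7.group K) := S1054.result _ (by simp)
  have hZ := center_eq_bot hS
  obtain ⟨cs, hcs⟩ : ∃ cs, cs = (CoxeterMatrix.E₇).toCoxeterSystem := ⟨_, rfl⟩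
  have hW : Finite (CoxeterMatrix.E₇).Group := finite_W isType_E7 cs
  have hG := G1_eq_top (K := K) isType_E7 cs
  obtain ⟨k, -, hk⟩ := rhoE7.exists_conj isType_E7 cs p hZ
  have hc : IsConj (zS isType_E7 K [2, 4, 6]) t := (isConj_iff.2 ⟨k, hk⟩ : IsConj _ _).symm.trans h
  obtain ⟨g, hg⟩ := isConj_iff.1 hc
  rw [← hg, dim_conj]
  have ht := sgnEl_zS isType_E7 K cs [2, 4, 6]
  rw [← bits_E7] at ht
  have e1 : SgnEl cs isType_E7.isCartan (TT chevE7 K) (XX chevE7 7 K) 0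
      (zS isType_E7 K [2, 4, 6] * zS isType_E7 K [2, 4, 6]) := by
    have e2 := Cfsg.Agent.H557.LrNF.SgnEl.mul ht ht
    have e3 : bits 7 (2 ^ 0) + bits 7 (2 ^ 0) = 0 := AddMonoidHom.ext fun x => add_self_zmod2 _
    rwa [e3] at e2
  have htt := SgnEl.unique hG hZ e1 Cfsg.Agent.H557.LrNF.SgnEl.one
  rw [dim_sgn slacE7 isType_E7 cs twoE7 h2 htt ht]
  have h5 := Cfsg.Agent.H798.KKL.card_bits 0
  rw [card_E7_0] at h5
  exact h5

/-- **`Fi₂₂` does not embed into `E₇(q)`, `q` odd** -/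
theorem no_fi22_E7 (ho : Odd (Fintype.card K)) (f : Spor.Fi22 →* ↥(chevE7.group K)) (hf : Function.Injective f) :
    False := by
  obtain ⟨p, hpp, hpc, hp2⟩ := exists_char K ho
  have h2 : (2 : K) ≠ 0 := (Cfsg.Agent.H557.LrIso.odd_card (F := K) hp2).2
  have hB : FiB.B 0 ≠ 1 := by
    rw [FiB.B_zero]
    intro h
    apply Fischer.Fi22Order.c_ne_a
    rw [Fischer.Fi22Order.gen_c, h, mul_one, mul_inv_cancel]
  have h1 : f (FiB.B 0) ≠ 1 := fun h => hB (hf (by rw [h, map_one]))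
  have htt : f (FiB.B 0) * f (FiB.B 0) = 1 := by rw [← map_mul, FiB.B_sq (by norm_num), map_one]
  let ρ : Spor.Fi22 →* End K (chevE7.Idx → K) := (rho chevE7 K).comp f
  have hdim : finrank K (chevE7.Idx → K) = 133 := by
    rw [Module.finrank_fintype_fun_eq_card]
    rfl
  have hρ : ρ (FiB.B 0) ≠ 1 := by
    intro h
    apply h1
    apply Subtype.ext
    apply Units.ext
    apply (Matrix.toLinAlgEquiv' (R := K) (n := chevE7.Idx)).injective
    rw [Subgroup.coe_one, Units.val_one, map_one]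
    exact h
  have h3 : finrank K ↥(LinearMap.ker (rho chevE7 K (f (FiB.B 0)) + 1)) = 56 :=
    FiRep.dim_eq h2 ρ (by rw [hdim]; norm_num) hρ
  have h4 := dim_classical ho (conj_of_four ho htt h1 (by rw [h3]; norm_num))
  omega

open Cfsg.Agent.H805.EPX Cfsg.Agent.H209.EPX in
/-- **the row `(E₇(3), Fi₂₂)`** -/
theorem e7_3_Fi22 (F : Type) [Field F] [Fintype F] [IsSimpleGroup ↥(Lie.chevE7.group F)] (hF : Fintype.card F = 3) :
    NoRow (fun T _ => Spor.IsoFi22 T) ↥(Lie.chevE7.group F) := by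
  intro H N T _ e _ hT
  classical
  obtain ⟨e'⟩ := hT
  let f : T →* ↥(Lie.chevE7.group F) := (N.subtype.comp e.symm.toMonoidHom).comp
    (MonoidHom.mulSingle (fun _ : Fin 1 => T) 0)
  have hf : Function.Injective f :=
    (Subtype.val_injective.comp e.symm.injective).comp (Pi.mulSingle_injective (M := fun _ : Fin 1 => T) 0)
  exact no_fi22_E7 (by rw [hF]; decide) (f.comp e'.symm.toMonoidHom) (hf.comp e'.symm.injective)

end Cfsg.Agent.H14.EPX
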